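import Cfsg.Agent.E6AltSection.Combo

/-!
Two symmetries of the forty-five monomials generating a group transitive on coordinates and on monomials.
-/

set_option autoImplicit false

namespace CfsgLib.E6AltSection

open Cfsg.Lie CfsgLib.ChevE6Cubic

/-- The first symmetry, as a table. -/
def tblA : List I27 :=
  [(2, 1, 1), (0, 2, 0), (2, 2, 1), (1, 0, 2), (2, 0, 0), (1, 0, 1), (2, 1, 2), (0, 1, 0), (2, 2, 2),
   (1, 1, 1), (1, 2, 1), (2, 2, 0), (0, 0, 2), (0, 0, 1), (1, 0, 0), (1, 1, 2), (1, 2, 2), (2, 1, 0),
   (0, 1, 1), (1, 2, 0), (0, 2, 1), (0, 1, 2), (1, 1, 0), (0, 2, 2), (2, 0, 2), (0, 0, 0), (2, 0, 1)]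

/-- The second symmetry, as a table. -/
def tblB : List I27 :=
  [(0, 0, 1), (0, 1, 1), (1, 2, 2), (0, 0, 2), (0, 1, 2), (1, 1, 2), (2, 2, 1), (2, 2, 0), (0, 2, 0),
   (2, 1, 0), (2, 0, 0), (0, 1, 0), (2, 1, 1), (2, 0, 1), (0, 0, 0), (1, 0, 0), (1, 0, 1), (2, 2, 2),
   (1, 1, 1), (1, 2, 1), (2, 0, 2), (1, 1, 0), (1, 2, 0), (2, 1, 2), (0, 2, 2), (0, 2, 1), (1, 0, 2)]

/-- The symmetries. -/
def gen (b : Bool) (a : I27) : I27 :=
  (bif b then tblB else tblA).getD (9 * a.1.val + 3 * a.2.1.val + a.2.2.val) (0, 0, 0)

/-- A product of symmetries. -/
def app : List Bool → I27 → I27
  | [] => id
  | b :: w => gen b ∘ app w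

/-- Words moving the first coordinate to each coordinate. -/
def wordsPt : List (List Bool) :=
  [[],
   [false, false, false, false, true],
   [true, false, true, true, true],
   [false],
   [false, false, true, true, true],
   [false, true],
   [true, true, true, false, false, true],
   [false, false, false, true, true, true],
   [false, false],
   [false, true, false, false, false, true],
   [false, true, true, false, false, false],
   [false, false, true],
   [false, true, true],
   [true, true, true],
   [true, true, false, true, true, true],
   [false, true, true, true],
   [true],
   [false, false, true, true, false, false, false],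
   [false, false, false],
   [true, true],
   [true, false, false, false],
   [true, false, false, false, true],
   [true, true, false, false, false],
   [true, false, false, true],
   [true, true, false, false, true],
   [false, false, false, true],
   [true, false, true]]

/-- Words moving the first monomial in search order to each monomial. -/
def wordsTri : List (List Bool) :=
  [[true],
   [false, true, false],
   [false, false, false],
   [true, true],
   [false, true, true, false],
   [true, false, false, false],
   [true, false, false, false, true],
   [false, true, true, false, false, true],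
   [false, true, false, false, true],
   [true, true, false, false, true],
   [false, false, false, true, false],
   [true, false, true],
   [false, true],
   [true, false, true, true],
   [false, false, true, true, false, false],
   [true, false, false],
   [true, false],
   [true, true, true, false],
   [false, true, true, true],
   [false, true, true, false, false, false],
   [false, true, false, false, false, false],
   [false, false, false, true, true, true],
   [true, false, true, true, true],
   [],
   [false, false, false, true],
   [true, true, true, false, true],
   [true, false, true, true, false],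
   [true, true, false, true],
   [false, false, true, false],
   [true, false, false, false, false],
   [false, false, true],
   [false, false, true, true, true],
   [true, true, true],
   [true, false, false, true, true, true],
   [true, false, false, true],
   [true, true, false, false, false],
   [false],
   [false, true, true],
   [false, false, false, false],
   [true, true, false],
   [false, false],
   [false, false, true, false, false],
   [false, true, false, false],
   [true, true, false, false],
   [false, true, true, false, false]]

theorem gen_facts : ∀ b : Bool, ((ord.map Prod.fst).map (gen b)).Nodup ∧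
    (triples.all fun T => triples.any fun T' => decide ((T.map (gen b)).Perm T')) = true := by decide +kernel

theorem gen_injective (b : Bool) : Function.Injective (gen b) := fun x y h =>
  List.inj_on_of_nodup_map (gen_facts b).1 (ord_spec.2.1 x) (ord_spec.2.1 y) h

theorem app_injective : ∀ w, Function.Injective (app w)
  | [] => Function.injective_id
  | b :: w => (gen_injective b).comp (app_injective w)

theorem app_triples : ∀ (w : List Bool), ∀ T ∈ triples, ∃ T' ∈ triples, (T.map (app w)).Perm T'
  | [], T, hT => ⟨T, hT, by simp [app]⟩
  | b :: w, T, hT => by
    obtain ⟨T', hT', hp⟩ := app_triples w T hT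
    obtain ⟨T'', hT'', hp'⟩ := List.any_eq_true.1 (List.all_eq_true.1 (gen_facts b).2 T' hT')
    refine ⟨T'', hT'', ?_⟩
    rw [app, ← List.map_map]
    exact (hp.map (gen b)).trans (of_decide_eq_true hp')

/-- The first coordinate in search order. -/
def pt0 : I27 := (ord.map Prod.fst).getD 0 (0, 0, 0)

/-- The first three coordinates in search order, a monomial. -/
def tri0 : List I27 := (ord.map Prod.fst).take 3

theorem words_pt : ((List.range 27).all fun i =>
    decide (app (wordsPt.getD i []) pt0 = (ord.map Prod.fst).getD i (0, 0, 0))) = true := by decide +kernel

theorem words_tri : ((List.range 45).all fun j =>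
    decide ((tri0.map (app (wordsTri.getD j []))).Perm (triples.getD j []))) = true := by decide +kernel

theorem exists_word_pt (a : I27) : ∃ w, app w pt0 = a := by
  obtain ⟨i, hi, rfl⟩ := List.getElem_of_mem (ord_spec.2.1 a)
  refine ⟨wordsPt.getD i [], ?_⟩
  have h := of_decide_eq_true (List.all_eq_true.1 words_pt i (List.mem_range.2 (by simpa [ord] using hi)))
  rw [h, List.getD_eq_getElem _ _ hi]

theorem exists_word_tri {T : List I27} (hT : T ∈ triples) : ∃ w, (tri0.map (app w)).Perm T := by
  obtain ⟨j, hj, rfl⟩ := List.getElem_of_mem hT
  refine ⟨wordsTri.getD j [], ?_⟩
  have h := of_decide_eq_true (List.all_eq_true.1 words_tri j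
    (List.mem_range.2 (by have : triples.length = 45 := by decide +kernel
                          omega)))
  rwa [List.getD_eq_getElem _ _ hj] at h

variable {l : ℕ}

theorem lab_app {k : I27 → ZMod l} (h : Lab k) (w : List Bool) : Lab (k ∘ app w) := fun T hT => by
  obtain ⟨T', hT', hp⟩ := app_triples w T hT
  rw [← List.map_map, (hp.map k).sum_eq]
  exact h T' hT'

theorem card_app (k : I27 → ZMod l) (w : List Bool) (v : ZMod l) :
    (Finset.univ.filter fun a => (k ∘ app w) a = v).card = (Finset.univ.filter fun a => k a = v).card := by
  let e : I27 ≃ I27 := Equiv.ofBijective (app w) (Finite.injective_iff_bijective.1 (app_injective w))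
  refine Finset.card_equiv e fun a => ?_
  simp [e]

end CfsgLib.E6AltSection
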