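import Cfsg.Agent.E6AltSection.Check
import Cfsg.Agent.E6AltSection.Symm

/-!
Balanced labellings of the monomials at five and eleven, and permutations of order five preserving the
monomials.
-/

set_option autoImplicit false
set_option linter.unusedSectionVars false

namespace CfsgLib.E6AltSection

open Cfsg.Lie CfsgLib.ChevE6Cubic

variable {l : ℕ} [Fact l.Prime]

/-- The multiplicity of a label. -/
noncomputable def mult (k : I27 → ZMod l) (v : ZMod l) : ℕ := (Finset.univ.filter fun a => k a = v).card

theorem sum_mult (k : I27 → ZMod l) : ∑ v : ZMod l, mult k v = 27 := by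
  classical
  have h := Finset.card_eq_sum_card_fiberwise (f := k) (s := (Finset.univ : Finset I27))
    (t := Finset.univ) (fun a _ => Finset.mem_coe.2 (Finset.mem_univ _))
  rw [Finset.card_univ] at h
  exact h.symm.trans rfl

theorem mult_pow_two {k : I27 → ZMod l} (hbal : ∀ v, mult k (2 * v) = mult k v) (i : ℕ) (v : ZMod l) :
    mult k (2 ^ i * v) = mult k v := by
  induction i with
  | zero => simp
  | succ i ih => rw [pow_succ', mul_assoc, hbal, ih]

theorem mult_smul (k : I27 → ZMod l) {u : ZMod l} (hu : u ≠ 0) (v : ZMod l) :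
    (Finset.univ.filter fun a => u * k a = v).card = mult k (u⁻¹ * v) := by
  refine congrArg Finset.card (Finset.filter_congr fun a _ => ?_)
  rw [eq_inv_mul_iff_mul_eq₀ hu]

instance fact_five : Fact (Nat.Prime 5) := ⟨by norm_num⟩

instance fact_eleven : Fact (Nat.Prime 11) := ⟨by norm_num⟩

theorem gen_five : ∀ v : ZMod 5, v ≠ 0 → ∃ i : Fin 4, v = 2 ^ i.val := by decide

theorem gen_eleven : ∀ v : ZMod 11, v ≠ 0 → ∃ i : Fin 10, v = 2 ^ i.val := by decide

/-! ### Independent sets -/

/-- Two coordinates on a common monomial. -/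
def adj (a b : I27) : Bool := decide (a ≠ b) && triples.any fun T => T.contains a && T.contains b

/-- The coordinates on a monomial with the given one. -/
def nbr (a : I27) : List I27 := (ord.map Prod.fst).filter (adj a)

/-- The monomials through a coordinate, as finite sets. -/
def star (a : I27) : Finset (Finset I27) :=
  ((triples.filter fun T => T.contains a).map fun T => T.toFinset).toFinset

theorem star_facts : (∀ a, (star a).card = 5) ∧ (∀ T ∈ triples, T.Nodup ∧ T.length = 3) ∧
    (∀ S ∈ triples, ∀ T ∈ triples, 2 ≤ (S.toFinset ∩ T.toFinset).card → S.toFinset = T.toFinset) ∧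
    (∀ a b : I27, a = b ∨ adj a b = true ∨ (nbr a).any (fun c => adj c b) = true) := by
  refine ⟨by decide +kernel, by decide +kernel, by decide +kernel, by decide +kernel⟩

/-- The pairs of an element and the list after it. -/
def splits : List I27 → List (I27 × List I27)
  | [] => []
  | v :: cs => (v, cs) :: splits cs

/-- Searching for independent sets. -/
def indepB : ℕ → List I27 → Bool
  | 0, _ => true
  | j + 1, cs => (splits cs).any fun vc => indepB j (vc.2.filter fun w => !adj vc.1 w)

theorem indepB_sound : ∀ (j : ℕ) (cs : List I27) (S : Finset I27), S.card = j → S ⊆ cs.toFinset →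
    (∀ a ∈ S, ∀ b ∈ S, adj a b = false) → indepB j cs = true := by
  intro j
  induction j with
  | zero => intros; rfl
  | succ j ih =>
    intro cs
    induction cs with
    | nil =>
      intro S hS hsub _
      have : S = ∅ := Finset.subset_empty.1 (by simpa using hsub)
      simp [this] at hS
    | cons v cs ihc =>
      intro S hS hsub hind
      rw [indepB, splits, List.any_cons, Bool.or_eq_true]
      by_cases hv : v ∈ S
      · refine Or.inl (ih _ (S.erase v) (by rw [Finset.card_erase_of_mem hv, hS]; rfl) (fun w hw => ?_)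
          fun a ha b hb => hind a (Finset.mem_of_mem_erase ha) b (Finset.mem_of_mem_erase hb))
        obtain ⟨hne, hwS⟩ := Finset.mem_erase.1 hw
        have h1 := hsub hwS
        simp only [List.toFinset_cons, Finset.mem_insert, List.mem_toFinset] at h1
        simp [hind v hv w hwS, h1.resolve_left hne]
      · refine Or.inr ?_
        have := ihc S hS (fun w hw => ?_) hind
        · rwa [indepB] at this
        have h1 := hsub hw
        simp only [List.toFinset_cons, Finset.mem_insert] at h1
        exact h1.resolve_left fun e => hv (e ▸ hw)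

theorem indep_seven : indepB 6 ((ord.map Prod.fst).filter fun a => decide (a ≠ pt0) && !adj pt0 a) = false := by
  decide +kernel

theorem adj_app (w : List Bool) {a b : I27} (h : adj a b = true) : adj (app w a) (app w b) = true := by
  simp only [adj, Bool.and_eq_true, decide_eq_true_eq, List.any_eq_true, List.contains_eq_mem] at h ⊢
  obtain ⟨hne, T, hT, ha, hb⟩ := h
  obtain ⟨T', hT', hp⟩ := app_triples w T hT
  exact ⟨fun e => hne (app_injective w e), T', hT', hp.subset (List.mem_map_of_mem ha),
    hp.subset (List.mem_map_of_mem hb)⟩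

theorem card_le_six {S : Finset I27} (hS : ∀ a ∈ S, ∀ b ∈ S, adj a b = false) : S.card ≤ 6 := by
  classical
  by_contra h
  obtain ⟨R, hRS, hR⟩ := Finset.exists_subset_card_eq (show 7 ≤ S.card by omega)
  obtain ⟨x, hx⟩ : R.Nonempty := Finset.card_pos.1 (by omega)
  obtain ⟨w, hw⟩ := exists_word_pt x
  let e : I27 ≃ I27 := Equiv.ofBijective (app w) (Finite.injective_iff_bijective.1 (app_injective w))
  set R' := (Finset.univ.filter fun a => e a ∈ R).erase pt0
  have h6 : R'.card = 6 := by
    rw [Finset.card_erase_of_mem (Finset.mem_filter.2 ⟨Finset.mem_univ _, by simpa [e, hw] using hx⟩),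
      Finset.card_equiv e (t := R) (fun a => by simp), hR]
  have hind : ∀ a b, app w a ∈ R → app w b ∈ R → adj a b = false := fun a b ha hb => by
    by_contra hab
    rw [Bool.not_eq_false] at hab
    exact Bool.false_ne_true ((hS _ (hRS ha) _ (hRS hb)).symm.trans (adj_app w hab))
  have := indepB_sound 6 ((ord.map Prod.fst).filter fun a => decide (a ≠ pt0) && !adj pt0 a) R' h6 (fun a ha => by
    simp only [R', Finset.mem_erase, Finset.mem_filter, Finset.mem_univ, true_and] at ha
    rw [List.mem_toFinset, List.mem_filter]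
    refine ⟨ord_spec.2.1 a, ?_⟩
    rw [hind pt0 a (by rw [hw]; exact hx) (by simpa [e] using ha.2), decide_eq_true ha.1]
    rfl) fun a ha b hb => hind a b
      (by simpa [e] using (Finset.mem_filter.1 (Finset.mem_of_mem_erase ha)).2)
      (by simpa [e] using (Finset.mem_filter.1 (Finset.mem_of_mem_erase hb)).2)
  rw [indep_seven] at this
  exact Bool.false_ne_true this

/-- A labelling with a zero coordinate, moved. -/
theorem exists_zero_first {k : I27 → ZMod l} (h : Lab k) (h0 : 0 < mult k 0) :
    ∃ k' : I27 → ZMod l, Lab k' ∧ (∀ v, mult k' v = mult k v) ∧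
      ∀ j < 1, k' ((ord.map Prod.fst).getD j (0, 0, 0)) = 0 := by
  obtain ⟨a, ha⟩ := Finset.card_pos.1 h0
  obtain ⟨w, hw⟩ := exists_word_pt a
  refine ⟨k ∘ app w, lab_app h w, card_app k w, fun j hj => ?_⟩
  obtain rfl : j = 0 := by omega
  show k (app w pt0) = 0
  rw [hw]
  exact (Finset.mem_filter.1 ha).2

/-- A labelling vanishing on seven coordinates vanishes on a monomial, moved. -/
theorem exists_zero_triple {k : I27 → ZMod l} (h : Lab k) (h7 : 7 ≤ mult k 0) :
    ∃ k' : I27 → ZMod l, Lab k' ∧ (∀ v, mult k' v = mult k v) ∧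
      ∀ j < 3, k' ((ord.map Prod.fst).getD j (0, 0, 0)) = 0 := by
  classical
  obtain ⟨a, ha, b, hb, hab⟩ : ∃ a, k a = 0 ∧ ∃ b, k b = 0 ∧ adj a b = true := by
    by_contra hno
    push Not at hno
    have := card_le_six (S := Finset.univ.filter fun a => k a = 0) fun a ha b hb => by
      simpa using hno a (Finset.mem_filter.1 ha).2 b (Finset.mem_filter.1 hb).2
    rw [mult] at h7
    omega
  simp only [adj, Bool.and_eq_true, decide_eq_true_eq, List.any_eq_true, List.contains_eq_mem] at hab
  obtain ⟨hne, T, hT, haT, hbT⟩ := hab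
  have hall : ∀ c ∈ T, k c = 0 := by
    obtain ⟨m, hm, rfl⟩ := List.mem_map.1 hT
    have hs := h _ (List.mem_map.2 ⟨m, hm, rfl⟩)
    simp only [List.map_cons, List.map_nil, List.sum_cons, List.sum_nil, add_zero] at hs
    simp only [List.mem_cons, List.not_mem_nil, or_false] at haT hbT ⊢
    rintro c (rfl | rfl | rfl) <;> rcases haT with rfl | rfl | rfl <;> rcases hbT with rfl | rfl | rfl <;>
      simp_all
  obtain ⟨w, hp⟩ := exists_word_tri hT
  refine ⟨k ∘ app w, lab_app h w, card_app k w, fun j hj => hall _ ?_⟩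
  refine hp.subset (List.mem_map_of_mem ?_)
  have hlen : 3 ≤ (ord.map Prod.fst).length := by simp [ord]
  rw [tri0, List.mem_take_iff_getElem]
  exact ⟨j, by omega, (List.getD_eq_getElem _ _ (by omega)).symm⟩

/-- A balanced labelling at five has multiplicities seven and five. -/
theorem lab_five {k : I27 → ZMod 5} (h : Lab k) (hbal : ∀ v, mult k (2 * v) = mult k v)
    (hne : ∃ a, k a ≠ 0) : mult k 0 = 7 ∧ ∀ v : ZMod 5, v ≠ 0 → mult k v = 5 := by
  classical
  have hall : ∀ v : ZMod 5, v ≠ 0 → mult k v = mult k 1 := fun v hv => by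
    obtain ⟨i, rfl⟩ := gen_five v hv
    simpa using mult_pow_two hbal i.val 1
  have hsum := sum_mult k
  rw [show (Finset.univ : Finset (ZMod 5)) = {0, 1, 2, 3, 4} from by decide] at hsum
  rw [Finset.sum_insert (by decide), Finset.sum_insert (by decide), Finset.sum_insert (by decide),
    Finset.sum_insert (by decide), Finset.sum_singleton, hall 2 (by decide), hall 3 (by decide),
    hall 4 (by decide)] at hsum
  obtain ⟨a₁, ha₁⟩ := hne
  have hm1 : 0 < mult k 1 := by
    rw [← hall (k a₁) ha₁]
    exact Finset.card_pos.2 ⟨a₁, Finset.mem_filter.2 ⟨Finset.mem_univ _, rfl⟩⟩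
  obtain ⟨k', h', hk', hz'⟩ := exists_zero_first h (by omega)
  have hne' : ∃ a, k' a ≠ 0 := by
    obtain ⟨a, ha⟩ := Finset.card_pos.1 (show 0 < mult k' 1 by rw [hk']; exact hm1)
    exact ⟨a, by rw [(Finset.mem_filter.1 ha).2]; exact one_ne_zero⟩
  obtain ⟨u, hu, C, hC, hd⟩ := lab_search (by norm_num) (by norm_num) search_five h' hz'
    (fun v hv => by
      show mult k' v ≤ 6
      rw [hk', hall v hv]
      omega) hne'
  have hu0 : u ≠ 0 := hu.ne_zero
  have hd' : ∀ w : ZMod 5, dig 32 C w.val = mult k (u⁻¹ * w) := fun w => by rw [hd, mult_smul k' hu0, hk']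
  have hw : ∀ w : ZMod 5, w ≠ 0 → dig 32 C w.val = mult k 1 := fun w hw => by
    rw [hd', hall _ (mul_ne_zero (inv_ne_zero hu0) hw)]
  have h0 : dig 32 C 0 = mult k 0 := by simpa using hd' 0
  have w1 : dig 32 C 1 = mult k 1 := hw 1 (by decide)
  have w2 : dig 32 C 2 = mult k 1 := hw 2 (by decide)
  have w3 : dig 32 C 3 = mult k 1 := hw 3 (by decide)
  have w4 : dig 32 C 4 = mult k 1 := hw 4 (by decide)
  simp only [leafFive, w1, w2, w3, w4, h0, beq_self_eq_true, Bool.and_self, Bool.not_true, Bool.false_or,
    Bool.and_eq_true, beq_iff_eq] at hC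
  exact ⟨hC.1, fun v hv => by rw [hall v hv]; exact hC.2⟩

/-- There is no balanced non-zero labelling at eleven. -/
theorem lab_eleven {k : I27 → ZMod 11} (h : Lab k) (hbal : ∀ v, mult k (2 * v) = mult k v)
    (hne : ∃ a, k a ≠ 0) : False := by
  classical
  have hall : ∀ v : ZMod 11, v ≠ 0 → mult k v = mult k 1 := fun v hv => by
    obtain ⟨i, rfl⟩ := gen_eleven v hv
    simpa using mult_pow_two hbal i.val 1
  have hsum := sum_mult k
  rw [← Finset.add_sum_erase _ _ (Finset.mem_univ (0 : ZMod 11)),
    Finset.sum_congr rfl fun v hv => hall v (Finset.ne_of_mem_erase hv), Finset.sum_const,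
    Finset.card_erase_of_mem (Finset.mem_univ _), Finset.card_univ, ZMod.card, smul_eq_mul] at hsum
  obtain ⟨a₁, ha₁⟩ := hne
  have hm1 : 0 < mult k 1 := by
    rw [← hall (k a₁) ha₁]
    exact Finset.card_pos.2 ⟨a₁, Finset.mem_filter.2 ⟨Finset.mem_univ _, rfl⟩⟩
  obtain ⟨k', h', hk', hz'⟩ := exists_zero_triple h (by norm_num at hsum; omega)
  have hne' : ∃ a, k' a ≠ 0 := by
    obtain ⟨a, ha⟩ := Finset.card_pos.1 (show 0 < mult k' 1 by rw [hk']; exact hm1)
    exact ⟨a, by rw [(Finset.mem_filter.1 ha).2]; exact one_ne_zero⟩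
  obtain ⟨u, hu, C, hC, hd⟩ := lab_search (by norm_num) (by norm_num) search_eleven h' hz'
    (fun v hv => by
      show mult k' v ≤ 2
      rw [hk', hall v hv]
      omega) hne'
  have hu0 : u ≠ 0 := hu.ne_zero
  have hw : ∀ w ∈ ([1, 2, 4, 8, 5, 10, 9, 7, 3, 6] : List ℕ), dig 32 C w = mult k 1 := fun w hw => by
    have h11 : w < 11 ∧ w ≠ 0 := by fin_cases hw <;> simp
    rw [← ZMod.val_cast_of_lt h11.1, hd, mult_smul k' hu0, hk', hall _ (mul_ne_zero (inv_ne_zero hu0) ?_)]
    rw [Ne, ZMod.natCast_eq_zero_iff]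
    exact fun hd' => h11.2 (Nat.eq_zero_of_dvd_of_lt hd' h11.1)
  have : leafEleven C = false := by
    rw [leafEleven, Bool.not_eq_false', List.all_eq_true]
    intro w hw'
    rw [hw w hw', hw 1 (by simp), beq_self_eq_true]
  rw [this] at hC
  exact Bool.false_ne_true hC

/-- A permutation preserving the monomials. -/
def Pres (π : Equiv.Perm I27) : Prop :=
  ∀ T ∈ triples, ∃ T' ∈ triples, T.toFinset.image π = T'.toFinset

theorem fixed_of_pow_five {α : Type*} [DecidableEq α] (f : α → α) (h5 : ∀ x, f^[5] x = x) (S : Finset α)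
    (hS : ∀ x ∈ S, f x ∈ S) (hc : S.card < 5) : ∀ x ∈ S, f x = x := by
  intro x hx
  have hp : Function.IsPeriodicPt f 5 x := h5 x
  rcases Nat.prime_five.eq_one_or_self_of_dvd _ hp.minimalPeriod_dvd with h | h
  · exact Function.minimalPeriod_eq_one_iff_isFixedPt.1 h
  · exfalso
    have hmem : ∀ i, f^[i] x ∈ S := fun i => by
      induction i with
      | zero => exact hx
      | succ i ih => rw [Function.iterate_succ_apply']; exact hS _ ih
    have := Finset.card_le_card_of_injOn (s := Finset.range 5) (fun i => f^[i] x) (fun i _ => hmem i)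
      (fun i hi j hj e => Function.iterate_injOn_Iio_minimalPeriod (by simpa [h] using hi)
        (by simpa [h] using hj) e)
    rw [Finset.card_range] at this
    omega

/-- A permutation of order five preserving the monomials fixes at most six coordinates. -/
theorem fixed_le_six {π : Equiv.Perm I27} (hπ : Pres π) (h5 : π ^ 5 = 1) (hne : π ≠ 1) :
    (Finset.univ.filter fun a => π a = a).card ≤ 6 := by
  classical
  refine card_le_six fun v hv w hw => ?_
  rw [Finset.mem_filter] at hv hw
  by_contra hadj
  rw [Bool.not_eq_false] at hadj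
  obtain ⟨-, hc3, hc4, hc5⟩ := star_facts
  -- all neighbours of a fixed coordinate with a fixed neighbour are fixed
  have key : ∀ v w, π v = v → π w = w → adj v w = true → ∀ x, adj v x = true → π x = x := by
    intro v w hv hw hvw x hvx
    have hmem : ∀ {y}, adj v y = true → ∃ T ∈ triples, v ∈ T ∧ y ∈ T ∧ v ≠ y := fun {y} h => by
      simp only [adj, Bool.and_eq_true, decide_eq_true_eq, List.any_eq_true, List.contains_eq_mem] at h
      obtain ⟨hne', T, hT, ha, hb⟩ := h
      exact ⟨T, hT, ha, hb, hne'⟩
    obtain ⟨L, hL, hvL, hwL, hvw'⟩ := hmem hvw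
    obtain ⟨T, hT, hvT, hxT, -⟩ := hmem hvx
    have hmap : ∀ S ∈ star v, S.image π ∈ star v := fun S hS => by
      simp only [star, List.mem_toFinset, List.mem_map, List.mem_filter, List.contains_eq_mem,
        decide_eq_true_eq] at hS ⊢
      obtain ⟨A, ⟨hA, hvA⟩, rfl⟩ := hS
      obtain ⟨A', hA', e⟩ := hπ A hA
      refine ⟨A', ⟨hA', ?_⟩, e.symm⟩
      rw [← List.mem_toFinset, ← e]
      exact Finset.mem_image.2 ⟨v, List.mem_toFinset.2 hvA, hv⟩
    have hin : ∀ {A}, A ∈ triples → v ∈ A → A.toFinset ∈ star v := fun {A} hA hvA => by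
      simp only [star, List.mem_toFinset, List.mem_map, List.mem_filter, List.contains_eq_mem,
        decide_eq_true_eq]
      exact ⟨A, ⟨hA, hvA⟩, rfl⟩
    have hLfix : L.toFinset.image π = L.toFinset := by
      obtain ⟨L', hL', e⟩ := hπ L hL
      rw [e]
      refine (hc4 L hL L' hL' ?_).symm
      have hsub : ({v, w} : Finset I27) ⊆ L.toFinset ∩ L'.toFinset := by
        intro y hy
        rw [Finset.mem_inter, ← e]
        simp only [Finset.mem_insert, Finset.mem_singleton] at hy
        rcases hy with rfl | rfl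
        · exact ⟨List.mem_toFinset.2 hvL, Finset.mem_image.2 ⟨_, List.mem_toFinset.2 hvL, hv⟩⟩
        · exact ⟨List.mem_toFinset.2 hwL, Finset.mem_image.2 ⟨_, List.mem_toFinset.2 hwL, hw⟩⟩
      simpa [hvw'] using Finset.card_le_card hsub
    have hit : ∀ (i : ℕ) (S : Finset I27), (fun S : Finset I27 => S.image π)^[i] S = S.image (π ^ i : Equiv.Perm I27) := by
      intro i S
      induction i with
      | zero => simp
      | succ i ih => rw [Function.iterate_succ_apply', ih, Finset.image_image, pow_succ']; rfl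
    have hfixT : T.toFinset.image π = T.toFinset := by
      by_cases hTL : T.toFinset = L.toFinset
      · rw [hTL, hLfix]
      refine fixed_of_pow_five (fun S : Finset I27 => S.image π) (fun S => ?_) ((star v).erase L.toFinset)
        (fun S hS => ?_) ?_ T.toFinset (Finset.mem_erase.2 ⟨hTL, hin hT hvT⟩)
      · rw [hit, h5]; simp
      · obtain ⟨hne', hS'⟩ := Finset.mem_erase.1 hS
        exact Finset.mem_erase.2 ⟨fun e => hne' (Finset.image_injective π.injective (e.trans hLfix.symm)),
          hmap S hS'⟩
      · rw [Finset.card_erase_of_mem (hin hL hvL), star_facts.1]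
        norm_num
    refine fixed_of_pow_five π (fun y => by rw [← Equiv.Perm.coe_pow, h5]; rfl) T.toFinset
      (fun y hy => hfixT ▸ Finset.mem_image_of_mem _ hy) ?_ x (List.mem_toFinset.2 hxT)
    rw [List.toFinset_card_of_nodup (hc3 T hT).1, (hc3 T hT).2]
    norm_num
  have hsymm : ∀ a b, adj a b = true → adj b a = true := fun a b h => by
    simp only [adj, Bool.and_eq_true, decide_eq_true_eq, List.any_eq_true] at h ⊢
    exact ⟨h.1.symm, h.2.imp fun T hT => ⟨hT.1, hT.2.2, hT.2.1⟩⟩
  refine hne (Equiv.ext fun b => ?_)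
  rw [Equiv.Perm.one_apply]
  rcases hc5 v b with rfl | h | h
  · exact hv.2
  · exact key v w hv.2 hw.2 hadj b h
  · obtain ⟨c, hc, hcb⟩ := List.any_eq_true.1 h
    have hvc : adj v c = true := (List.mem_filter.1 hc).2
    exact key c v (key v w hv.2 hw.2 hadj c hvc) hv.2 (hsymm _ _ hvc) b hcb

end CfsgLib.E6AltSection
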