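import Cfsg.Agent.E6AltSection.Combo

/-!
The two searches, checked by the kernel.
-/

set_option autoImplicit false

namespace CfsgLib.E6AltSection

theorem search_five : srch 5 6 leafFive ((ord.map Prod.snd).drop 1) 1 false 0 1 = true := by decide +kernel

theorem search_eleven : srch 11 2 leafEleven ((ord.map Prod.snd).drop 3) 3 false 0 3 = true := by decide +kernel

end CfsgLib.E6AltSection
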