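import Mathlib

/-!
A search over labellings of finitely many points by residues, each label being either free or determined
by two earlier ones, with bounded multiplicities of the non-zero labels.
-/

set_option autoImplicit false

namespace CfsgLib.E6AltSection

/-- The digit at place `i` in base `B`. -/
def dig (B S i : ℕ) : ℕ := S / B ^ i % B

theorem dig_add_top {B S x i : ℕ} (hS : S < B ^ i) (hx : x < B) :
    dig B (S + x * B ^ i) i = x ∧ (∀ j < i, dig B (S + x * B ^ i) j = dig B S j) ∧
      S + x * B ^ i < B ^ (i + 1) := by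
  have hpos : 0 < B ^ i := Nat.pos_of_ne_zero fun h => by rw [h] at hS; exact Nat.not_lt_zero _ hS
  refine ⟨?_, fun j hj => ?_, ?_⟩
  · rw [dig, Nat.add_mul_div_right _ _ hpos, Nat.div_eq_of_lt hS, zero_add, Nat.mod_eq_of_lt hx]
  · obtain ⟨m, rfl⟩ := Nat.exists_eq_add_of_le hj
    have hB : 0 < B := by omega
    rw [dig, dig, show x * B ^ (j + 1 + m) = x * B ^ (m + 1) * B ^ j by ring,
      Nat.add_mul_div_right _ _ (pow_pos hB j), show x * B ^ (m + 1) = B * (x * B ^ m) by ring,
      Nat.add_mul_mod_self_left]
  · rw [pow_succ]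
    calc S + x * B ^ i < B ^ i + x * B ^ i := by omega
      _ = (x + 1) * B ^ i := by ring
      _ ≤ B * B ^ i := Nat.mul_le_mul_right _ hx
      _ = B ^ i * B := Nat.mul_comm _ _

theorem dig_succ {B C v w : ℕ} (hB : 0 < B) (h : dig B C v + 1 < B) :
    dig B (C + B ^ v) w = dig B C w + if v = w then 1 else 0 := by
  have hd : (C + B ^ v) / B ^ v = C / B ^ v + 1 := Nat.add_div_right _ (pow_pos hB v)
  rcases lt_trichotomy v w with hlt | rfl | hlt
  · rw [if_neg hlt.ne, add_zero]
    obtain ⟨m, rfl⟩ := Nat.exists_eq_add_of_le hlt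
    have : (C + B ^ v) / B ^ (v + 1) = C / B ^ (v + 1) := by
      rw [pow_succ, ← Nat.div_div_eq_div_mul, ← Nat.div_div_eq_div_mul, hd]
      rw [dig] at h
      generalize C / B ^ v = a at h ⊢
      have e : a + 1 = (a % B + 1) + B * (a / B) := by
        have := Nat.div_add_mod a B
        omega
      rw [e, Nat.add_mul_div_left _ _ hB, Nat.div_eq_of_lt h, zero_add]
    rw [dig, dig, pow_add, ← Nat.div_div_eq_div_mul, this, Nat.div_div_eq_div_mul]
  · rw [if_pos rfl, dig, hd]
    rw [dig] at h ⊢
    rw [Nat.add_mod, Nat.one_mod_eq_one.mpr (by omega), Nat.mod_eq_of_lt h]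
  · rw [if_neg hlt.ne', add_zero]
    obtain ⟨m, rfl⟩ := Nat.exists_eq_add_of_le hlt
    rw [dig, dig, show B ^ (w + 1 + m) = B ^ (m + 1) * B ^ w by ring,
      Nat.add_mul_div_right _ _ (pow_pos hB w), show B ^ (m + 1) = B * B ^ m by ring,
      Nat.add_mul_mod_self_left]

variable {ι : Type}

/-- The possible values at one step. -/
def cands (l : ℕ) (rule : Option (ℕ × ℕ)) (nz : Bool) (S : ℕ) : List ℕ :=
  match rule with
  | some (a, b) => [(2 * l - dig 16 S a - dig 16 S b) % l]
  | none => if nz then List.range l else [0, 1]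

/-- The search. -/
def srch (l km : ℕ) (leaf : ℕ → Bool) : List (Option (ℕ × ℕ)) → ℕ → Bool → ℕ → ℕ → Bool
  | [], _, nz, _, C => !nz || leaf C
  | rule :: t, i, nz, S, C => (cands l rule nz S).all fun v =>
      (v != 0 && decide (km ≤ dig 32 C v)) ||
        srch l km leaf t (i + 1) (nz || v != 0) (S + v * 16 ^ i) (C + 32 ^ v)

/-- The rules are valid for a labelling. -/
def RulesOK (l : ℕ) (val : List ℕ) (R : List (Option (ℕ × ℕ))) : Prop :=
  ∀ i a b, R[i]? = some (some (a, b)) → a < i ∧ b < i ∧ l ∣ val.getD a 0 + val.getD b 0 + val.getD i 0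

theorem srch_sound {l km : ℕ} {leaf : ℕ → Bool} (hl : l ≤ 16) (val : List ℕ)
    (R : List (Option (ℕ × ℕ))) (hR : RulesOK l val R) (hlen : R.length = val.length)
    (hv : ∀ v ∈ val, v < l) (hshort : val.length < 31)
    (hkm : ∀ v, v ≠ 0 → val.count v ≤ km)
    (hnorm : ∀ i, (∀ j < i, val.getD j 0 = 0) → val.getD i 0 = 0 ∨ val.getD i 0 = 1)
    (hne : ∃ v ∈ val, v ≠ 0) {z : ℕ} (hz : z ≤ val.length) (hzero : ∀ j < z, val.getD j 0 = 0)
    (h : srch l km leaf (R.drop z) z false 0 z = true) :
    ∃ C, leaf C = true ∧ ∀ w, dig 32 C w = val.count w := by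
  suffices ∀ n i, i + n = val.length → ∀ nz S C,
      srch l km leaf (R.drop i) i nz S C = true →
      (nz = false → ∀ j < i, val.getD j 0 = 0) → (nz = true → ∃ v ∈ val, v ≠ 0) → S < 16 ^ i →
      (∀ j < i, dig 16 S j = val.getD j 0) → (∀ w, dig 32 C w = (val.take i).count w) →
      ∃ C, leaf C = true ∧ ∀ w, dig 32 C w = val.count w by
    have htz : val.take z = List.replicate z 0 := by
      refine List.eq_replicate_iff.2 ⟨by rw [List.length_take]; omega, fun v hv' => ?_⟩
      obtain ⟨j, hj, rfl⟩ := List.getElem_of_mem hv'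
      rw [List.length_take] at hj
      have := hzero j (by omega)
      rw [List.getD_eq_getElem _ _ (by omega)] at this
      rw [List.getElem_take]
      exact this
    refine this (val.length - z) z (by omega) false 0 z h (fun _ j hj => hzero j hj) (fun hh => absurd hh (by simp))
      (by positivity) (fun j hj => by rw [hzero j hj]; simp [dig]) fun w => ?_
    rw [htz, List.count_replicate, dig]
    rcases Nat.eq_zero_or_pos w with rfl | hw
    · simp only [pow_zero, Nat.div_one, BEq.rfl, if_true]
      exact Nat.mod_eq_of_lt (by omega)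
    · have : z < 32 ^ w := lt_of_lt_of_le (show z < 32 by omega) (Nat.le_self_pow hw.ne' 32)
      rw [Nat.div_eq_of_lt this, if_neg (by simp; omega)]
  intro n
  induction n with
  | zero =>
    intro i hi nz S C hs hz _ _ _ hC
    obtain rfl : i = val.length := by omega
    rw [List.drop_eq_nil_of_le (by omega), srch, Bool.or_eq_true] at hs
    refine ⟨C, hs.resolve_left fun hnz => ?_, fun w => by rw [hC, List.take_length]⟩
    obtain ⟨v, hvm, hv0⟩ := hne
    obtain ⟨j, hj, rfl⟩ := List.getElem_of_mem hvm
    refine hv0 ?_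
    have := hz (by simpa using hnz) j hj
    rwa [List.getD_eq_getElem _ _ hj] at this
  | succ n ih =>
    intro i hi nz S C hs hz hnz hS hSd hC
    have hil : i < val.length := by omega
    have hiR : i < R.length := by omega
    rw [List.drop_eq_getElem_cons hiR, srch, List.all_eq_true] at hs
    set x := val.getD i 0 with hx
    have hxmem : x ∈ val := by rw [hx, List.getD_eq_getElem _ _ hil]; exact List.getElem_mem hil
    have hxl : x < l := hv x hxmem
    have hmem : x ∈ cands l R[i] nz S := by
      rcases hr : R[i] with _ | ⟨a, b⟩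
      · cases nz with
        | true => simpa [cands] using hxl
        | false => simpa [cands, hx] using hnorm i (hz rfl)
      · obtain ⟨ha, hb, hd⟩ := hR i a b (by rw [List.getElem?_eq_getElem hiR, hr])
        have hlt : ∀ j < i, val.getD j 0 < l := fun j hj => by
          rw [List.getD_eq_getElem _ _ (hj.trans hil)]; exact hv _ (List.getElem_mem _)
        simp only [cands, List.mem_singleton, hSd a ha, hSd b hb]
        have la := hlt a ha
        have lb := hlt b hb
        obtain ⟨c, hc⟩ := hd
        have hc3 : c ≤ 2 := by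
          by_contra hc3
          have : l * 3 ≤ l * c := Nat.mul_le_mul_left l (by omega)
          rw [← hx] at hc
          omega
        rw [← hx] at hc
        interval_cases c
        · rw [show 2 * l - val.getD a 0 - val.getD b 0 = x + l * 2 by omega, Nat.add_mul_mod_self_left,
            Nat.mod_eq_of_lt hxl]
        · rw [show 2 * l - val.getD a 0 - val.getD b 0 = x + l * 1 by omega, Nat.add_mul_mod_self_left,
            Nat.mod_eq_of_lt hxl]
        · rw [show 2 * l - val.getD a 0 - val.getD b 0 = x by omega, Nat.mod_eq_of_lt hxl]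
    have htake : val.take (i + 1) = val.take i ++ [x] := by
      rw [List.take_succ_eq_append_getElem hil, hx, List.getD_eq_getElem _ _ hil]
    have hcnt : ∀ w, (val.take i).count w + (if x = w then 1 else 0) ≤ val.count w := fun w => by
      have : (val.take (i + 1)).count w ≤ val.count w := (List.take_sublist _ _).count_le w
      rw [htake, List.count_append, List.count_singleton] at this
      simpa [beq_iff_eq] using this
    obtain ⟨d1, d2, d3⟩ := dig_add_top hS (show x < 16 by omega)
    rcases Bool.or_eq_true _ _ ▸ hs x hmem with hcut | hrec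
    · simp only [Bool.and_eq_true, bne_iff_ne, ne_eq, decide_eq_true_eq, hC] at hcut
      have h1 := hcnt x
      have h2 := hkm x hcut.1
      rw [if_pos rfl] at h1
      omega
    · refine ih (i + 1) (by omega) _ _ _ hrec (fun hnz' j hj => ?_) (fun hnz' => ?_) d3 (fun j hj => ?_)
        fun w => ?_
      · simp only [Bool.or_eq_false_iff, bne_eq_false_iff_eq] at hnz'
        rcases Nat.lt_succ_iff_lt_or_eq.1 hj with hj | rfl
        exacts [hz hnz'.1 j hj, hnz'.2]
      · simp only [Bool.or_eq_true, bne_iff_ne, ne_eq] at hnz'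
        exact hnz'.elim hnz fun h0 => ⟨x, hxmem, h0⟩
      · rcases Nat.lt_succ_iff_lt_or_eq.1 hj with hj | rfl
        exacts [(d2 j hj).trans (hSd j hj), d1]
      · rw [dig_succ (by norm_num) (by rw [hC]; have := hcnt x; have := List.count_le_length (a := x) (l := val); rw [if_pos rfl] at *; omega),
          hC, htake, List.count_append, List.count_singleton]
        simp [beq_iff_eq]

end CfsgLib.E6AltSection
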