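import Mathlib
import Cfsg.Agent.ChevE6Cubic.Data
import Cfsg.Agent.E6AltSection.Search

/-!
Combinatorics of the forty-five monomials of the cubic form of type E₆: labellings by residues that sum
to zero on every monomial, and permutations preserving the monomials.
-/

set_option autoImplicit false
set_option linter.unusedSectionVars false

namespace CfsgLib.E6AltSection

open Cfsg.Lie CfsgLib.ChevE6Cubic

/-- The coordinates in search order. -/
def ord : List (I27 × Option (ℕ × ℕ)) :=
  [((2, 2, 0), none), ((1, 1, 2), none), ((0, 0, 1), some (1, 0)), ((2, 0, 2), none),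
   ((2, 1, 1), some (3, 0)), ((2, 2, 2), none), ((2, 0, 0), some (4, 5)), ((1, 1, 0), some (2, 6)),
   ((0, 2, 1), some (7, 3)), ((1, 1, 1), none), ((2, 1, 0), some (2, 9)), ((2, 0, 1), some (10, 5)),
   ((2, 1, 2), some (11, 0)), ((2, 2, 1), some (6, 12)), ((0, 1, 1), some (7, 11)), ((0, 0, 0), none),
   ((0, 2, 2), some (15, 14)), ((0, 1, 2), some (15, 8)), ((0, 1, 0), some (2, 16)),
   ((0, 2, 0), some (2, 17)), ((0, 0, 2), some (18, 8)), ((1, 0, 0), some (15, 6)),
   ((1, 2, 2), some (21, 9)), ((1, 2, 1), some (21, 1)), ((1, 0, 1), some (7, 22)),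
   ((1, 2, 0), some (24, 1)), ((1, 0, 2), some (7, 23))]

/-- The monomials as lists of their coordinates. -/
def triples : List (List I27) := monos.map fun m => [m.2.1, m.2.2.1, m.2.2.2]

/-- A labelling by residues summing to zero on each monomial. -/
def Lab {l : ℕ} (k : I27 → ZMod l) : Prop := ∀ T ∈ triples, (T.map k).sum = 0

theorem ord_spec : (ord.map Prod.fst).Nodup ∧ (∀ a : I27, a ∈ ord.map Prod.fst) ∧ ord.length = 27 ∧
    (∀ i : Fin 27, ∀ a b, (ord.map Prod.snd)[i.val]? = some (some (a, b)) → a < i.val ∧ b < i.val) := by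
  refine ⟨by decide +kernel, by decide +kernel, rfl, ?_⟩
  have h : ((List.range 27).all fun i => match (ord.map Prod.snd)[i]? with
      | some (some (a, b)) => decide (a < i ∧ b < i)
      | _ => true) = true := by decide +kernel
  intro i a b he
  have := List.all_eq_true.1 h i.val (List.mem_range.2 i.isLt)
  rw [he] at this
  exact of_decide_eq_true this

/-- Each rule is a monomial. -/
theorem ord_rules : ((List.range 27).all fun i => match (ord.map Prod.snd)[i]? with
    | some (some (a, b)) => triples.any fun T => decide (List.Perm T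
        [(ord.map Prod.fst).getD a (0, 0, 0), (ord.map Prod.fst).getD b (0, 0, 0),
          (ord.map Prod.fst).getD i (0, 0, 0)])
    | _ => true) = true := by decide +kernel

variable {l : ℕ} [NeZero l]

theorem lab_smul {k : I27 → ZMod l} (h : Lab k) (u : ZMod l) : Lab fun a => u * k a := fun T hT => by
  have := h T hT
  induction T generalizing k with
  | nil => rfl
  | cons => rw [List.sum_map_mul_left, this, mul_zero]

/-- The labels in search order. -/
def vals (k : I27 → ZMod l) : List ℕ := (ord.map Prod.fst).map fun a => (k a).val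

omit [NeZero l] in
theorem count_vals (k : I27 → ZMod l) (w : ℕ) :
    (vals k).count w = (Finset.univ.filter fun a => (k a).val = w).card := by
  classical
  have h : (Finset.univ : Finset I27) = (ord.map Prod.fst).toFinset :=
    (Finset.eq_univ_of_forall fun a => List.mem_toFinset.2 (ord_spec.2.1 a)).symm
  rw [vals, List.count, List.countP_map, List.countP_eq_length_filter, h,
    ← List.toFinset_card_of_nodup (ord_spec.1.filter _)]
  congr 1
  ext a
  simp

theorem vals_rules {k : I27 → ZMod l} (h : Lab k) : RulesOK l (vals k) (ord.map Prod.snd) := by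
  intro i a b he
  have hi : i < 27 := by
    obtain ⟨hi, -⟩ := List.getElem?_eq_some_iff.1 he
    simpa [ord] using hi
  obtain ⟨ha, hb⟩ := ord_spec.2.2.2 ⟨i, hi⟩ a b he
  refine ⟨ha, hb, ?_⟩
  have h1 := List.all_eq_true.1 ord_rules i (List.mem_range.2 hi)
  rw [he] at h1
  obtain ⟨T, hT, hp⟩ := List.any_eq_true.1 h1
  have hget : ∀ j < 27, (vals k).getD j 0 = (k ((ord.map Prod.fst).getD j (0, 0, 0))).val := fun j hj => by
    have hj' : j < (ord.map Prod.fst).length := by simpa [ord] using hj
    rw [List.getD_eq_getElem _ _ hj', List.getD_eq_getElem _ _ (by simpa [vals] using hj')]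
    simp [vals]
  rw [hget a (ha.trans hi), hget b (hb.trans hi), hget i hi, ← ZMod.natCast_eq_zero_iff]
  push_cast
  simp only [ZMod.natCast_zmod_val]
  have h2 := h T hT
  rw [((of_decide_eq_true hp).map k).sum_eq] at h2
  simpa [add_assoc] using h2

/-- Running the search on a labelling with a unit as first non-zero label. -/
theorem lab_search [Fact l.Prime] (hl : l ≤ 16) {km z : ℕ} {leaf : ℕ → Bool} (hz : z ≤ 27)
    (hs : srch l km leaf ((ord.map Prod.snd).drop z) z false 0 z = true) {k : I27 → ZMod l} (h : Lab k)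
    (hzero : ∀ j < z, k ((ord.map Prod.fst).getD j (0, 0, 0)) = 0)
    (hkm : ∀ v : ZMod l, v ≠ 0 → (Finset.univ.filter fun a => k a = v).card ≤ km)
    (hne : ∃ a, k a ≠ 0) :
    ∃ u : ZMod l, IsUnit u ∧ ∃ C, leaf C = true ∧
      ∀ w : ZMod l, dig 32 C w.val = (Finset.univ.filter fun a => u * k a = w).card := by
  classical
  have hfull : ∃ i, ∃ hi : i < (ord.map Prod.fst).length, k ((ord.map Prod.fst)[i]) ≠ 0 := by
    obtain ⟨a, ha⟩ := hne
    obtain ⟨i, hi, rfl⟩ := List.getElem_of_mem (ord_spec.2.1 a)
    exact ⟨i, hi, ha⟩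
  set i₀ := Nat.find hfull
  obtain ⟨hi₀, hne₀⟩ := Nat.find_spec hfull
  obtain ⟨u, hu⟩ := isUnit_iff_ne_zero.2 hne₀
  refine ⟨(↑u⁻¹ : ZMod l), Units.isUnit _, ?_⟩
  set k' : I27 → ZMod l := fun a => (↑u⁻¹ : ZMod l) * k a
  have hval : ∀ w : ZMod l, (vals k').count w.val = (Finset.univ.filter fun a => k' a = w).card := fun w => by
    rw [count_vals]
    exact congrArg Finset.card (Finset.filter_congr fun a _ => (ZMod.val_injective l).eq_iff)
  have hget : ∀ i (hi : i < (ord.map Prod.fst).length),
      (vals k').getD i 0 = (k' ((ord.map Prod.fst)[i])).val := fun i hi => by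
    have hi' : i < (vals k').length := by rw [vals, List.length_map]; exact hi
    rw [List.getD_eq_getElem _ _ hi']
    exact List.getElem_map _
  refine (srch_sound hl (vals k') _ (vals_rules (lab_smul h _)) (by simp [vals])
    (fun v hv => by obtain ⟨a, -, rfl⟩ := List.mem_map.1 hv; exact ZMod.val_lt _) (by simp [vals, ord])
    (fun v hv => ?_) (fun i hi => ?_) ?_ (z := z) (by simpa [vals, ord] using hz) (fun j hj => ?_) hs).elim fun C hC => ⟨C, hC.1, fun w => by rw [hC.2, hval]⟩
  · by_cases hvl : v < l
    · rw [← ZMod.val_cast_of_lt hvl, hval]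
      refine le_trans (le_of_eq ?_) (hkm ((u : ZMod l) * (v : ZMod l)) fun h0 => hv ?_)
      · exact congrArg Finset.card (Finset.filter_congr fun a _ => Units.inv_mul_eq_iff_eq_mul u)
      · rw [Units.mul_right_eq_zero, ZMod.natCast_eq_zero_iff] at h0
        exact Nat.eq_zero_of_dvd_of_lt h0 hvl
    · rw [List.count_eq_zero.2 fun hv' => hvl (by obtain ⟨a, -, rfl⟩ := List.mem_map.1 hv'; exact ZMod.val_lt _)]
      exact Nat.zero_le _
  · by_cases hil : i < (ord.map Prod.fst).length
    · rw [hget i hil]
      rcases Nat.lt_trichotomy i i₀ with hlt | heq | hgt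
      · left
        have : k ((ord.map Prod.fst)[i]) = 0 := by
          by_contra h'; exact Nat.find_min hfull hlt ⟨hil, h'⟩
        rw [ZMod.val_eq_zero]
        simp only [k', this, mul_zero]
      · right
        subst heq
        have e : k' ((ord.map Prod.fst)[i₀]) = 1 := by
          simp only [k']; rw [← hu, Units.inv_mul]
        rw [e]
        have := Fact.mk (Fact.out : l.Prime).one_lt
        exact ZMod.val_one l
      · exfalso
        have h0 := hi i₀ hgt
        rw [hget i₀ hi₀, ZMod.val_eq_zero] at h0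
        simp only [k', Units.mul_right_eq_zero] at h0
        exact hne₀ h0
    · left
      refine List.getD_eq_default _ _ ?_
      rw [vals, List.length_map]
      exact Nat.le_of_not_lt hil
  · obtain ⟨a, ha⟩ := hne
    exact ⟨(k' a).val, List.mem_map.2 ⟨a, ord_spec.2.1 a, rfl⟩, fun h0 => ha (by
      rw [ZMod.val_eq_zero] at h0
      simp only [k', Units.mul_right_eq_zero] at h0
      exact h0)⟩
  · have hj' : j < (ord.map Prod.fst).length := by
      have : (ord.map Prod.fst).length = 27 := by simp [ord]
      omega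
    have h0 := hzero j hj
    rw [List.getD_eq_getElem _ _ hj'] at h0
    rw [hget j hj', ZMod.val_eq_zero]
    simp only [k', h0, mul_zero]

/-- Leaf test at five. -/
def leafFive (C : ℕ) : Bool :=
  !(dig 32 C 1 == dig 32 C 2 && dig 32 C 2 == dig 32 C 4 && dig 32 C 4 == dig 32 C 3) ||
    (dig 32 C 0 == 7 && dig 32 C 1 == 5)

/-- Leaf test at eleven. -/
def leafEleven (C : ℕ) : Bool :=
  !([1, 2, 4, 8, 5, 10, 9, 7, 3, 6].all fun w => dig 32 C w == dig 32 C 1)

end CfsgLib.E6AltSection
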