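import Cfsg.Agent.Chevalley.Weights.E6
import Cfsg.Agent.F4AltSection.Torus

/-!
Sylow five-subgroups of the split group of type E₆ when `q - 1` is divisible by five.
-/

set_option autoImplicit false
set_option linter.unusedSectionVars false

namespace CfsgLib.E6AltSection

open Cfsg.Lie CfsgLib.Chevalley CfsgLib.F4AltSection

theorem weylCard : (sysE6.wSet (List.range chevE6.rank)).card = 51840 := by
  have h := lenSumE6 ℚ 1
  rw [Sys.lenSum] at h
  simp only [one_pow, Finset.sum_const, nsmul_eq_mul, mul_one] at h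
  have e : ((sysE6.wSet (List.range 6)).card : ℤ) = 51840 := h.trans (by decide +kernel)
  exact_mod_cast e

/-- The length generating function in product form. -/
def poly {R : Type*} [CommRing R] (x : R) : R :=
  ((levE65.lens.map fun e => x ^ e).sum) * ((levE64.lens.map fun e => x ^ e).sum) *
    ((levE63.lens.map fun e => x ^ e).sum) * ((levE62.lens.map fun e => x ^ e).sum) *
    ((levE61.lens.map fun e => x ^ e).sum) * ((levE60.lens.map fun e => x ^ e).sum)

theorem map_sumPow {R R' : Type*} [CommRing R] [CommRing R'] (φ : R →+* R') (x : R) (L : List ℕ) :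
    φ (L.map fun e => x ^ e).sum = (L.map fun e => φ x ^ e).sum := by
  induction L with
  | nil => simp
  | cons a L ih => rw [List.map_cons, List.sum_cons, map_add, map_pow, ih, List.map_cons, List.sum_cons]

theorem map_poly {R R' : Type*} [CommRing R] [CommRing R'] (φ : R →+* R') (x : R) : φ (poly x) = poly (φ x) := by
  unfold poly
  rw [map_mul, map_mul, map_mul, map_mul, map_mul, map_sumPow, map_sumPow, map_sumPow, map_sumPow, map_sumPow,
    map_sumPow]

theorem lenSum_residue : ∀ m : ZMod 25, poly (1 + 5 * m) ≠ 0 := by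
  unfold poly
  decide +kernel

variable {F : Type} [Field F] [Fintype F]

theorem natCard_weyl : Nat.card ↥(weylPerms sysE6) = 51840 := by
  rw [natCard_weylPerms, weylCard]

theorem range_perm : (sysE6.perm F).range = weylPerms sysE6 := by
  ext σ
  constructor
  · rintro ⟨n, rfl⟩
    exact sysE6.exists_wperm F n
  · rintro ⟨L, rfl⟩
    exact ⟨sysE6.wN F L, sysE6.perm_wN F L⟩

set_option maxHeartbeats 1000000 in
theorem index_monomial_five (hq : 5 ∣ Fintype.card F - 1) :
    ¬ 5 ∣ ((chevE6.monomialSubgroup F).subgroupOf (chevE6.group F)).index := by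
  classical
  set G := chevE6.group F
  set T' := (chevE6.diagonalSubgroup F).subgroupOf G
  set N' := (chevE6.monomialSubgroup F).subgroupOf G
  have h1 : T'.relIndex N' * N'.index = T'.index :=
    Subgroup.relIndex_mul_index fun x hx => (show chevE6.diagonalSubgroup F ≤ chevE6.monomialSubgroup F from
      le_sup_left) hx
  have h2 : T'.relIndex N' = 51840 := by
    rw [Subgroup.relIndex_subgroupOf (sysE6.monomial_le_group F), Subgroup.relIndex]
    rw [show (chevE6.diagonalSubgroup F).subgroupOf (chevE6.monomialSubgroup F) = hSub chevE6 F from rfl,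
      ← sysE6.ker_perm F, Subgroup.index_ker, range_perm, natCard_weyl]
  have h3 : (T'.index : ℤ) = (Fintype.card F : ℤ) ^ 36 * sysE6.lenSum (List.range 6) (Fintype.card F) := by
    have h := T'.card_mul_index
    rw [Nat.card_congr (Subgroup.subgroupOfEquivOfLe (sysE6.diagonal_le_group F)).toEquiv] at h
    refine mul_left_cancel₀ (a := (Nat.card (chevE6.diagonalSubgroup F) : ℤ))
      (Int.natCast_ne_zero.mpr Nat.card_pos.ne') ?_
    rw [← Nat.cast_mul, h, sysE6.natCard_group F]
    show (Fintype.card F : ℤ) ^ 36 * _ * sysE6.lenSum (List.range 6) _ = _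
    ring
  intro hd
  obtain ⟨j, hj⟩ := hd
  obtain ⟨i, hi⟩ := hq
  have hq25 : ((Fintype.card F : ℕ) : ZMod 25) = 1 + 5 * (i : ZMod 25) := by
    have : Fintype.card F = 1 + 5 * i := by
      have := Fintype.card_pos (α := F)
      omega
    rw [this]; push_cast; rfl
  have hz : ((T'.index : ℤ) : ZMod 25) = 0 := by
    rw [← h1, h2, hj, show 51840 * (5 * j) = 25 * (10368 * j) by ring]
    push_cast
    rw [show (25 : ZMod 25) = 0 from rfl, zero_mul]
  rw [h3, show sysE6.lenSum (List.range 6) (Fintype.card F) = poly (Fintype.card F : ℤ) from lenSumE6 F _,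
    Int.cast_mul, Int.cast_pow, Int.cast_natCast, ← eq_intCast (Int.castRingHom (ZMod 25)) (poly _),
    map_poly, map_natCast, hq25] at hz
  have hu : IsUnit ((1 + 5 * (i : ZMod 25)) ^ 36) := IsUnit.pow _ (by
    generalize (i : ZMod 25) = x
    revert x
    decide +kernel)
  exact lenSum_residue (i : ZMod 25) (hu.mul_right_eq_zero.1 hz)

/-- Five-subgroups are conjugate into the monomial subgroup. -/
theorem exists_monomial_five (hq : 5 ∣ Fintype.card F - 1) {P : Subgroup ↥(chevE6.group F)} (hP : IsPGroup 5 P) :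
    ∃ g : ↥(chevE6.group F), ∀ a ∈ P,
      ((g * a * g⁻¹ : ↥(chevE6.group F)) : GL chevE6.Idx F) ∈ chevE6.monomialSubgroup F := by
  classical
  haveI := Fact.mk Nat.prime_five
  exact exists_conj_into _ (index_monomial_five hq) hP

theorem card_roots_five {R : Type*} [CommRing R] [IsDomain R] :
    Nat.card {u : Rˣ // u ^ 5 = 1} ≤ 5 := by
  have h : {u : Rˣ // u ^ 5 = 1} ≃ ↥(rootsOfUnity 5 R) :=
    Equiv.subtypeEquivRight fun u => (mem_rootsOfUnity 5 u).symm
  rw [Nat.card_congr h]
  exact card_rootsOfUnity R 5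

/-- An elementary abelian quotient of a five-group of the Chevalley group has order at most `5 ^ 7`. -/
theorem five_bound (hq : 5 ∣ Fintype.card F - 1) {P : Type} [Group P] [Finite P]
    (j : P →* ↥(chevE6.group F)) (hj : Function.Injective j) (hP : IsPGroup 5 P) {A : Type} [CommGroup A]
    (f : P →* A) (hf : Function.Surjective f) (hA : ∀ a : A, a ^ 5 = 1) : Nat.card A ≤ 5 ^ 7 := by
  classical
  haveI := Fact.mk Nat.prime_five
  haveI : Finite A := Finite.of_surjective f hf
  obtain ⟨g, hg⟩ := exists_monomial_five hq (P := j.range)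
    (hP.of_surjective j.rangeRestrict j.rangeRestrict_surjective)
  let J : P →* ↥(chevE6.monomialSubgroup F) :=
    (((chevE6.group F).subtype.comp ((MulAut.conj g).toMonoidHom.comp j))).codRestrict _
      fun x => hg _ ⟨x, rfl⟩
  have hJ : Function.Injective J := fun x y h => hj ((MulAut.conj g).injective
    (Subtype.ext (congrArg (fun z : ↥(chevE6.monomialSubgroup F) => (z : GL chevE6.Idx F)) h)))
  set P₀ := ((sysE6.perm F).comp J).ker with hP₀
  have hidx : P₀.index ≤ 5 := by
    have hdvd : P₀.index ∣ 51840 := by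
      rw [hP₀, Subgroup.index_ker, ← natCard_weyl]
      refine Subgroup.card_dvd_of_le ?_
      rintro _ ⟨x, rfl⟩
      exact sysE6.exists_wperm F (J x)
    obtain ⟨a, ha⟩ := hP.index P₀
    rw [ha] at hdvd ⊢
    by_contra hlt
    have h2 : 2 ≤ a := by
      by_contra h2
      interval_cases a <;> omega
    exact absurd ((pow_dvd_pow 5 h2).trans hdvd) (by norm_num)
  have hdiag : ∀ x : P₀, ((J x : ↥(chevE6.monomialSubgroup F)) : GL chevE6.Idx F) ∈ chevE6.diagonalSubgroup F :=
    fun x => by
      have hx : sysE6.perm F (J x) = 1 := x.2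
      rw [← MonoidHom.mem_ker, sysE6.ker_perm F, hSub, Subgroup.mem_subgroupOf] at hx
      exact hx
  haveI : IsMulCommutative P₀ := ⟨⟨fun x y => Subtype.ext (hJ (Subtype.ext (by
    rw [Subgroup.coe_mul, Subgroup.coe_mul, map_mul, map_mul, Subgroup.coe_mul, Subgroup.coe_mul]
    exact sysE6.diagonal_comm F (hdiag x) (hdiag y))))⟩⟩
  letI : CommGroup P₀ := { (inferInstance : Group P₀) with mul_comm := fun a b => mul_comm' a b }
  set w : P₀ →* P₀ := powMonoidHom 5
  have hker : Nat.card w.ker ≤ 5 ^ 6 := by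
    have hval : ∀ z : w.ker, ∀ m : Fin 6, ∃ c : ℕ → Fˣ, tor chevE6 F c = (J z.1 : GL chevE6.Idx F) ∧
        torusVal chevE6 c (chevE6.simple m.val) ^ 5 = 1 := fun z m => by
      obtain ⟨c, hc⟩ := (sysE6.diagonal_eq (F := F)) ▸ hdiag z.1
      refine ⟨c, hc, ?_⟩
      have h5 : (z.1 : P) ^ 5 = 1 := congrArg Subtype.val (show z.1 ^ 5 = 1 from z.2)
      have e : tor chevE6 F (c ^ 5) = 1 := by
        rw [map_pow, hc, ← Subgroup.coe_pow, ← map_pow, h5, map_one, Subgroup.coe_one]
      have hlt : chevE6.simple m.val < chevE6.nroots := sysE6.wf.simple_lt _ m.isLt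
      have := congrArg (fun M : GL chevE6.Idx F =>
        (M : Matrix chevE6.Idx chevE6.Idx F) (Sum.inr ⟨_, hlt⟩) (Sum.inr ⟨_, hlt⟩)) e
      simp only [sysE6.tor_val, dg, Matrix.diagonal_apply_eq, Sum.elim_inr, Units.val_one, Matrix.one_apply_eq,
        Units.val_eq_one] at this
      rw [← this]
      rw [torusVal, torusVal, ← Finset.prod_pow]
      refine Finset.prod_congr rfl fun j _ => ?_
      show (c j ^ chevE6.cartan j _) ^ 5 = (c j ^ 5) ^ chevE6.cartan j _
      rw [← zpow_natCast, ← zpow_mul, ← zpow_natCast, ← zpow_mul, mul_comm]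
    choose c hc hc5 using fun z => hval z
    let code : w.ker → (Fin 6 → {u : Fˣ // u ^ 5 = 1}) := fun z m => ⟨_, hc5 z m⟩
    have hinj : Function.Injective code := fun z z' h => by
      refine Subtype.ext (Subtype.ext (hJ (Subtype.ext ?_)))
      rw [← hc z 0, ← hc z' 0]
      have key : ∀ z : w.ker, ∀ m : Fin 6, torusVal chevE6 (c z 0) (chevE6.simple m.val) = (code z m).1 := by
        intro z m
        have hlt : chevE6.simple m.val < chevE6.nroots := sysE6.wf.simple_lt _ m.isLt
        have := congrArg (fun M : GL chevE6.Idx F =>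
          (M : Matrix chevE6.Idx chevE6.Idx F) (Sum.inr ⟨_, hlt⟩) (Sum.inr ⟨_, hlt⟩)) ((hc z 0).trans (hc z m).symm)
        simp only [sysE6.tor_val, dg, Matrix.diagonal_apply_eq, Sum.elim_inr] at this
        exact Units.ext this
      refine Units.ext ?_
      rw [sysE6.tor_val, sysE6.tor_val]
      rw [dg, dg]
      congr 1
      funext s
      rcases s with _ | s
      · rfl
      simp only [Sum.elim_inr]
      congr 1
      rw [torusVal_vec sysE6 _ s.isLt, torusVal_vec sysE6 _ s.isLt]
      refine Finset.prod_congr rfl fun m hm => ?_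
      rw [key z ⟨m, Finset.mem_range.1 hm⟩, key z' ⟨m, Finset.mem_range.1 hm⟩, h]
    calc Nat.card w.ker ≤ Nat.card (Fin 6 → {u : Fˣ // u ^ 5 = 1}) := Nat.card_le_card_of_injective code hinj
      _ = Nat.card {u : Fˣ // u ^ 5 = 1} ^ 6 := by rw [Nat.card_fun, Nat.card_eq_fintype_card (α := Fin 6), Fintype.card_fin]
      _ ≤ 5 ^ 6 := Nat.pow_le_pow_left card_roots_five 6
  set f₀ : P₀ →* A := f.comp P₀.subtype
  have hf₀ : Nat.card f₀.range ≤ 5 ^ 6 := by
    rw [← Subgroup.index_ker]
    refine le_trans ?_ hker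
    have hle : w.range ≤ f₀.ker := by
      rintro _ ⟨x, rfl⟩
      rw [MonoidHom.mem_ker]
      show f₀ (x ^ 5) = 1
      rw [map_pow, hA]
    refine (Nat.le_of_dvd (Nat.pos_of_ne_zero Subgroup.index_ne_zero_of_finite) (Subgroup.index_dvd_of_le hle)).trans ?_
    have h1 := w.range.card_mul_index
    have h2 := w.ker.card_mul_index
    rw [Subgroup.index_ker] at h2
    refine le_of_eq (Nat.eq_of_mul_eq_mul_left (Nat.card_pos (α := w.range)) ?_)
    rw [h1, ← h2, mul_comm]
  have hcov : Nat.card A ≤ P₀.index * Nat.card f₀.range := by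
    rw [Subgroup.index, ← Nat.card_prod]
    refine Nat.card_le_card_of_surjective (fun z : (P ⧸ P₀) × f₀.range => f z.1.out * z.2.1) fun a => ?_
    obtain ⟨x, rfl⟩ := hf a
    have hx : (QuotientGroup.mk x : P ⧸ P₀).out⁻¹ * x ∈ P₀ := QuotientGroup.eq.1 (QuotientGroup.out_eq' _)
    exact ⟨(QuotientGroup.mk x, ⟨f₀ ⟨_, hx⟩, _, rfl⟩), by
      show f _ * f ((QuotientGroup.mk x : P ⧸ P₀).out⁻¹ * x) = f x
      rw [← map_mul, mul_inv_cancel_left]⟩
  calc Nat.card A ≤ P₀.index * Nat.card f₀.range := hcov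
    _ ≤ 5 * 5 ^ 6 := Nat.mul_le_mul hidx hf₀
    _ = 5 ^ 7 := by norm_num

end CfsgLib.E6AltSection
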