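import Cfsg.Agent.ChevE6Cubic.Rep
import Cfsg.Agent.ChevSteinberg.Data
import Cfsg.Agent.ChevSteinberg.CoverEquiv
import Cfsg.Agent.ChevSteinberg.TorusHom
import Cfsg.Agent.Chevalley.Order
import Cfsg.Agent.F4AltSection.Torus
import Cfsg.Agent.E6AltSection.Balanced

/-!
The Steinberg cover of type E₆ in its two representations: elements lying over the monomial subgroup act
on the twenty-seven coordinates by monomial isometries of the cubic form.
-/

set_option autoImplicit false
set_option linter.unusedSectionVars false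

namespace CfsgLib.E6AltSection

open Cfsg.Lie CfsgLib.Chevalley CfsgLib.ChevSteinberg CfsgLib.ChevOrth CfsgLib.ChevE6Cubic
open scoped Matrix

variable {F : Type} [Field F]

local notation "Cov" => chevE6.SteinbergCover F

/-- The projection onto the Chevalley group, as matrices. -/
noncomputable def θm (F : Type) [Field F] : chevE6.SteinbergCover F →* GL chevE6.Idx F := (coverSys sysE6 F).θ

/-- The representation on twenty-seven coordinates. -/
noncomputable def ξ (F : Type) [Field F] : chevE6.SteinbergCover F →* GL I27 F := (checked F).coverHom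

/-- A simple root as an index. -/
def sr (i : Fin 6) : ℕ := chevE6.simple i.val

/-- The weight of a coordinate at a simple coroot. -/
def wt (i : Fin 6) (a : I27) : ℤ :=
  if a ∈ (entX (sr i)).map (fun e => e.1) then 1
  else if a ∈ (entX (sr i)).map (fun e => e.2.1) then -1 else 0

theorem torB_simple : ∀ i : Fin 6, sr i < 72 ∧
    torB (sr i, chevE6.neg (sr i), 1, ((0, 0, 0) : I27)) = true := by decide +kernel

theorem xi_hT (i : Fin 6) {t : F} (ht : t ≠ 0) :
    ((ξ F ((coverSys sysE6 F).hT (sr i) t) : GL I27 F) : Matrix I27 I27 F) =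
      Matrix.diagonal (tval (sr i) t) := by
  have h := (torB_simple i).2
  simp only [torB, Bool.and_eq_true, decide_eq_true_eq] at h
  obtain ⟨⟨⟨⟨⟨⟨c1, c2⟩, c3⟩, c4⟩, c5⟩, c6⟩, hnd⟩ := h
  have e1 := eq_of_teq F c1
  have e2 := eq_of_teq F c2
  have e3 := eq_of_teq F c3
  have e4 := eq_of_teq F c4
  have e5 := eq_of_teq F c5
  have e6 := eq_of_teq F c6
  simp only [tev_tmul, tev_tscl, tev_sparseX, tev_nil, Int.cast_one, one_smul] at e1 e2 e3 e4 e5 e6
  set r := sr i
  set r' := chevE6.neg r
  set A := matX F r with hA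
  set B := matX F r' with hB
  have hn : ∀ s : F, s ≠ 0 →
      rmat tab F r s * rmat tab F r' (-s⁻¹) * rmat tab F r s = 1 - (A * B + B * A) + s • A - s⁻¹ • B := by
    intro s hs
    simp only [rmat_tab, ← hA, ← hB]
    simp only [neg_smul, add_mul, mul_add, one_mul, mul_one, neg_mul, mul_neg, Matrix.smul_mul,
      Matrix.mul_smul, e1, e5, smul_zero, add_zero, smul_smul, mul_inv_cancel₀ hs,
      inv_mul_cancel₀ hs, one_smul]
    abel
  have hgen : ∀ s : F, ξ F ((coverSys sysE6 F).y r s) = (checked F).gl r s := fun s =>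
    (checked F).coverHom_gen r s
  have hgen' : ∀ s : F, ξ F ((coverSys sysE6 F).y r' s) = (checked F).gl r' s := fun s =>
    (checked F).coverHom_gen r' s
  simp only [StSys.hT, StSys.nT, map_mul, Units.val_mul]
  rw [show chevE6.neg r = r' from rfl, hgen, hgen', hgen, hgen']
  simp only [Checked.gl_val]
  rw [hn t ht, hn (-1) (neg_ne_zero.2 one_ne_zero)]
  have hP : (1 - (A * B + B * A) + t • A - t⁻¹ • B) * (1 - (A * B + B * A) + (-1 : F) • A -
      (-1 : F)⁻¹ • B) = 1 - (A * B + B * A) + t • (A * B) + t⁻¹ • (B * A) := by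
    have b1 : B * A * A = 0 := by rw [mul_assoc, e5, mul_zero]
    have b2 : A * B * B = 0 := by rw [mul_assoc, e6, mul_zero]
    rw [inv_neg, inv_one, neg_smul, neg_smul, one_smul, one_smul, sub_neg_eq_add]
    simp only [add_mul, sub_mul, mul_add, mul_sub, one_mul, mul_one, Matrix.smul_mul,
      Matrix.mul_smul, ← mul_assoc, e1, e2, e5, e6, b1, b2, zero_mul, mul_zero, smul_zero, mul_neg,
      neg_mul, neg_zero, smul_neg]
    abel
  rw [hP, e3, e4]
  have hr1 := (List.nodup_append.1 hnd).1
  have hr2 := (List.nodup_append.1 hnd).2.1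
  have hdis := (List.nodup_append.1 hnd).2.2
  have d1 : tev (1 : F) 1 ((entX r).map fun e => (e.1, e.1, (1 : ℤ), 0, 0)) =
      Matrix.diagonal fun b => if b ∈ (entX r).map (fun e => e.1) then 1 else 0 := by
    rw [← diag_ind _ hr1, tev, List.map_map, List.map_map]
    exact congrArg List.sum (List.map_congr_left fun e _ => by simp)
  have d2 : tev (1 : F) 1 ((entX r).map fun e => (e.2.1, e.2.1, (1 : ℤ), 0, 0)) =
      Matrix.diagonal fun b => if b ∈ (entX r).map (fun e => e.2.1) then 1 else 0 := by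
    rw [← diag_ind _ hr2, tev, List.map_map, List.map_map]
    exact congrArg List.sum (List.map_congr_left fun e _ => by simp)
  rw [d1, d2, ← Matrix.diagonal_one, Matrix.diagonal_add, Matrix.diagonal_sub,
    ← Matrix.diagonal_smul, ← Matrix.diagonal_smul, Matrix.diagonal_add, Matrix.diagonal_add]
  congr 1
  funext b
  simp only [tval, Pi.smul_apply, smul_eq_mul]
  by_cases h1 : b ∈ (entX r).map (fun e => e.1)
  · rw [if_pos h1, if_neg (fun h2 => hdis b h1 b h2 rfl), if_pos h1]; ring
  · by_cases h2 : b ∈ (entX r).map (fun e => e.2.1)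
    · rw [if_neg h1, if_pos h2, if_neg h1, if_pos h2]; ring
    · rw [if_neg h1, if_neg h2, if_neg h1, if_neg h2]; ring

theorem diag_inv (f : I27 → Fˣ) :
    Matrix.diagonal (fun a => (f a : F)) * Matrix.diagonal (fun a => ((f a)⁻¹ : Fˣ).val) = 1 := by
  rw [Matrix.diagonal_mul_diagonal]
  simp

/-- Diagonal matrices as units. -/
noncomputable def diagU (F : Type) [Field F] : (I27 → Fˣ) →* GL I27 F where
  toFun f := ⟨Matrix.diagonal fun a => (f a : F), Matrix.diagonal fun a => ((f a)⁻¹ : Fˣ).val, diag_inv f, by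
    rw [Matrix.diagonal_mul_diagonal]; simp⟩
  map_one' := Units.ext (by simp [← Matrix.diagonal_one])
  map_mul' f g := Units.ext (by simp [Matrix.diagonal_mul_diagonal])

theorem diagU_val (f : I27 → Fˣ) : (diagU F f : Matrix I27 I27 F) = Matrix.diagonal fun a => (f a : F) := rfl

theorem diagU_injective : Function.Injective (diagU F) := fun f g h => funext fun a => Units.ext (by
  simpa [diagU_val] using congrArg (fun M : GL I27 F => (M : Matrix I27 I27 F) a a) h)

/-- The values of a torus element on the coordinates. -/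
noncomputable def tw (F : Type) [Field F] : (Fin 6 → Fˣ) →* (I27 → Fˣ) where
  toFun c a := ∏ i, c i ^ wt i a
  map_one' := funext fun a => by simp
  map_mul' c d := funext fun a => by simp [mul_zpow, Finset.prod_mul_distrib]

/-- The adjoint torus map in six parameters. -/
noncomputable def torF6 (F : Type) [Field F] : (Fin 6 → Fˣ) →* GL chevE6.Idx F :=
  (tor chevE6 F).comp (extendOne 6 Fˣ)

theorem torF6_apply (c : Fin 6 → Fˣ) : torF6 F c = tor chevE6 F (extendOne 6 Fˣ c) := rfl

variable [Finite F]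

theorem mulH : (coverSys sysE6 F).MulH := fun i t u ht hu =>
  (coverSys sysE6 F).hT_mul_of_finite witness_E6 (cover_gen sysE6 F) _ (sysE6.wf.simple_lt i i.isLt) t u ht hu

/-- The torus of the cover. -/
noncomputable def tc (F : Type) [Field F] [Finite F] : (Fin 6 → Fˣ) →* chevE6.SteinbergCover F :=
  (coverSys sysE6 F).torHom mulH witness_E6

theorem theta_tc (c : Fin 6 → Fˣ) : θm F (tc F c) = torF6 F c :=
  DFunLike.congr_fun ((coverSys sysE6 F).θ_comp_torHom mulH witness_E6) c

theorem xi_tc (c : Fin 6 → Fˣ) : ξ F (tc F c) = diagU F (tw F c) := by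
  suffices h : (ξ F).comp (tc F) = (diagU F).comp (tw F) from DFunLike.congr_fun h c
  refine MonoidHom.pi_ext fun i u => ?_
  simp only [MonoidHom.comp_apply]
  have e : tc F (Pi.mulSingle i u) = (coverSys sysE6 F).hT (sr i) (u : F) :=
    (coverSys sysE6 F).torHom_mulSingle mulH witness_E6 i u
  refine Units.ext ?_
  rw [e, xi_hT i u.ne_zero, diagU_val]
  congr 1
  funext a
  have hw : tw F (Pi.mulSingle i u) a = u ^ wt i a := by
    show ∏ j : Fin 6, (Pi.mulSingle i u : Fin 6 → Fˣ) j ^ wt j a = _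
    rw [Fintype.prod_eq_single i fun j hj => by rw [Pi.mulSingle_eq_of_ne hj, one_zpow], Pi.mulSingle_eq_same]
  rw [hw, tval, wt]
  split_ifs <;> simp

/-- Six coordinates whose weights form a basis. -/
def basisI : Fin 6 → I27 := ![(0, 0, 0), (0, 0, 1), (0, 0, 2), (0, 1, 0), (1, 0, 0), (1, 0, 1)]

/-- The inverse of the weights of the six coordinates. -/
def basisInv : Fin 6 → Fin 6 → ℤ :=
  ![![2, -1, -1, 0, 1, 1], ![2, -1, -1, 0, 2, 1], ![3, -1, -2, 0, 2, 2], ![4, -2, -2, 0, 3, 3],
    ![3, -2, -2, -1, 2, 2], ![1, -1, -1, 0, 1, 1]]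

theorem basis_ok : ∀ i j : Fin 6, ∑ k, wt j (basisI k) * basisInv i k = if i = j then 1 else 0 := by decide +kernel

theorem tw_injective : Function.Injective (tw F) := by
  refine (injective_iff_map_eq_one _).2 fun c hc => funext fun i => ?_
  have h : ∏ k, (∏ j, c j ^ wt j (basisI k)) ^ basisInv i k = 1 :=
    Finset.prod_eq_one fun k _ => by
      rw [show ∏ j, c j ^ wt j (basisI k) = 1 from congrFun hc (basisI k), one_zpow]
  simp only [← Finset.prod_zpow, ← zpow_mul] at h
  rw [Finset.prod_comm] at h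
  simp only [← prod_zpow_sum, basis_ok] at h
  simpa [Finset.prod_ite_eq, apply_ite] using h

theorem xi_tc_injective : Function.Injective fun c => ξ F (tc F c) := fun c d h =>
  tw_injective (diagU_injective (by simpa [xi_tc] using h))

theorem tor_ext_range (c : ℕ → Fˣ) : tor chevE6 F c = torF6 F (fun i : Fin 6 => c i) := by
  refine Units.ext ?_
  rw [torF6_apply, sysE6.tor_val, sysE6.tor_val]
  congr 1

theorem mem_range_of_ker {z : Cov} (hz : θm F z = 1) : ∃ c, tc F c = z :=
  (coverSys sysE6 F).HT_le_range mulH witness_E6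
    ((coverSys sysE6 F).ker_le_HT witness_E6 (cover_gen sysE6 F) hz)

theorem over_diagonal {x : Cov} (hx : θm F x ∈ chevE6.diagonalSubgroup F) : ∃ c, tc F c = x := by
  rw [sysE6.diagonal_eq] at hx
  obtain ⟨c, hc⟩ := hx
  rw [tor_ext_range, ← theta_tc] at hc
  obtain ⟨d, hd⟩ := mem_range_of_ker (z := x * (tc F fun i : Fin 6 => c i)⁻¹) (by
    rw [map_mul, map_inv, ← hc, mul_inv_cancel])
  exact ⟨d * fun i : Fin 6 => c i, by rw [map_mul, hd, inv_mul_cancel_right]⟩

/-- Three times the inverse of the Cartan matrix. -/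
def cartInv : Fin 6 → Fin 6 → ℤ :=
  ![![4, 3, 5, 6, 4, 2], ![3, 6, 6, 9, 6, 3], ![5, 6, 10, 12, 8, 4], ![6, 9, 12, 18, 12, 6],
    ![4, 6, 8, 12, 10, 5], ![2, 3, 4, 6, 5, 4]]

theorem cart_ok : ∀ i j : Fin 6, ∑ k : Fin 6, chevE6.cartan j.val (sr k) * cartInv i k =
    if i = j then 3 else 0 := by decide +kernel

theorem ker_cube {c : Fin 6 → Fˣ} (h : torF6 F c = 1) : c ^ 3 = 1 := by
  have hval : ∀ k : Fin 6, ∏ j : Fin 6, c j ^ chevE6.cartan j.val (sr k) = 1 := fun k => by
    rw [torF6_apply] at h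
    have hlt : sr k < chevE6.nroots := (torB_simple k).1
    have := congrArg (fun M : GL chevE6.Idx F =>
      (M : Matrix chevE6.Idx chevE6.Idx F) (Sum.inr ⟨sr k, hlt⟩) (Sum.inr ⟨sr k, hlt⟩)) h
    simp only [sysE6.tor_val, dg, Matrix.diagonal_apply_eq, Sum.elim_inr, Units.val_one, Matrix.one_apply_eq,
      Units.val_eq_one] at this
    rw [torusVal, show chevE6.rank = 6 from rfl, ← Fin.prod_univ_eq_prod_range] at this
    refine Eq.trans (Finset.prod_congr rfl fun j _ => ?_) this
    show _ = (if h : j.val < 6 then c ⟨j.val, h⟩ else 1) ^ _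
    rw [dif_pos j.isLt]
  funext i
  have h1 : ∏ k, (∏ j : Fin 6, c j ^ chevE6.cartan j.val (sr k)) ^ cartInv i k = 1 :=
    Finset.prod_eq_one fun k _ => by rw [hval, one_zpow]
  simp only [← Finset.prod_zpow, ← zpow_mul] at h1
  rw [Finset.prod_comm] at h1
  simp only [← prod_zpow_sum, cart_ok] at h1
  simpa [Finset.prod_ite_eq, apply_ite] using h1

theorem ker_theta {z : Cov} (hz : θm F z = 1) : z ^ 3 = 1 := by
  obtain ⟨c, rfl⟩ := mem_range_of_ker hz
  rw [theta_tc] at hz
  rw [← map_pow, ker_cube hz, map_one]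

theorem finite_cover : Finite Cov := by
  haveI : Fintype F := Fintype.ofFinite F
  haveI : Finite (θm F).ker := by
    refine Finite.of_injective (fun z : (θm F).ker => (mem_range_of_ker (z := z.1) (MonoidHom.mem_ker.1 z.2)).choose) fun a b h => ?_
    refine Subtype.ext ?_
    exact (mem_range_of_ker (MonoidHom.mem_ker.1 a.2)).choose_spec.symm.trans
      ((congrArg (tc F) h).trans (mem_range_of_ker (MonoidHom.mem_ker.1 b.2)).choose_spec)
  refine Nat.finite_of_card_ne_zero ?_
  rw [← (θm F).ker.card_mul_index, Subgroup.index_ker]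
  exact mul_ne_zero Nat.card_pos.ne' Nat.card_pos.ne'

/-! ### The isometries of the form -/

theorem xi_cval (x : Cov) (v : I27 → F) : cval monos ((ξ F x : Matrix I27 I27 F) *ᵥ v) = cval monos v := by
  have h : ξ F x ∈ E6univ F := grp_le ⟨x, rfl⟩
  rw [cval_eq_cubicT, cval_eq_cubicT]
  exact h v

/-- The coordinates of a monomial. -/
def mset (m : ℤ × I27 × I27 × I27) : Finset I27 := [m.2.1, m.2.2.1, m.2.2.2].toFinset

theorem monos_facts : monos.Nodup ∧ (∀ m ∈ monos, m.1 = 1 ∨ m.1 = -1) ∧
    ∀ m ∈ monos, ∀ n ∈ monos, mset n ⊆ mset m → n = m := by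
  refine ⟨by decide +kernel, by decide +kernel, by decide +kernel⟩

theorem cval_support {m : ℤ × I27 × I27 × I27} (hm : m ∈ monos) {v : I27 → F} (hv : ∀ a, a ∉ mset m → v a = 0) :
    cval monos v = (m.1 : F) * (v m.2.1 * v m.2.2.1 * v m.2.2.2) := by
  obtain ⟨hnd, -, huniq⟩ := monos_facts
  rw [cval, ← List.sum_toFinset _ hnd, Finset.sum_eq_single m]
  · intro n hn hne
    have : ¬ mset n ⊆ mset m := fun h => hne (huniq m hm n (List.mem_toFinset.1 hn) h)
    rw [Finset.not_subset] at this
    obtain ⟨a, ha, ha'⟩ := this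
    simp only [mset, List.mem_toFinset, List.mem_cons, List.not_mem_nil, or_false] at ha
    rcases ha with rfl | rfl | rfl <;> simp [hv _ ha']
  · exact fun h => absurd (List.mem_toFinset.2 hm) h

/-- A matrix of monomial shape. -/
def MonoShape {k : Type*} [Field k] (M : Matrix I27 I27 k) (π : Equiv.Perm I27) (c : I27 → k) : Prop :=
  (∀ a b, M a b = if a = π b then c b else 0) ∧ ∀ b, c b ≠ 0

theorem MonoShape.mulVec {k : Type*} [Field k] {M : Matrix I27 I27 k} {π : Equiv.Perm I27} {c : I27 → k}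
    (h : MonoShape M π c) (v : I27 → k) (b : I27) : (M *ᵥ v) (π b) = c b * v b := by
  simp only [Matrix.mulVec, dotProduct, h.1]
  rw [Finset.sum_eq_single b]
  · rw [if_pos rfl]
  · intro b' _ hne
    rw [if_neg fun e => hne (π.injective e).symm, zero_mul]
  · simp

theorem mono_form {x : Cov} {π : Equiv.Perm I27} {c : I27 → F}
    (h : MonoShape (ξ F x : Matrix I27 I27 F) π c) :
    Pres π ∧ (π = 1 → ∀ m ∈ monos, c m.2.1 * c m.2.2.1 * c m.2.2.2 = 1) := by
  have hval : ∀ (m : ℤ × I27 × I27 × I27), m ∈ monos →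
      cval monos ((ξ F x : Matrix I27 I27 F) *ᵥ fun a => if a ∈ mset m then 1 else 0) = (m.1 : F) ∧
        (m.1 : F) ≠ 0 := fun m hm => by
    refine ⟨?_, by rcases monos_facts.2.1 m hm with e | e <;> simp [e]⟩
    rw [xi_cval, cval_support hm fun a ha => if_neg ha]
    simp [mset]
  refine ⟨fun T hT => ?_, fun hπ m hm => ?_⟩
  · obtain ⟨m, hm, rfl⟩ := List.mem_map.1 hT
    obtain ⟨h1, h2⟩ := hval m hm
    set w := (ξ F x : Matrix I27 I27 F) *ᵥ fun a => if a ∈ mset m then (1 : F) else 0 with hw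
    obtain ⟨n, hn, hn0⟩ : ∃ n ∈ monos, w n.2.1 * w n.2.2.1 * w n.2.2.2 ≠ 0 := by
      by_contra hall
      push Not at hall
      refine h2 ?_
      rw [← h1, cval]
      exact List.sum_eq_zero fun y hy => by
        obtain ⟨n, hn, rfl⟩ := List.mem_map.1 hy
        rw [hall n hn, mul_zero]
    refine ⟨_, List.mem_map.2 ⟨n, hn, rfl⟩, ?_⟩
    have hmem : ∀ a, w a ≠ 0 → a ∈ (mset m).image π := fun a ha => by
      obtain ⟨b, rfl⟩ := π.surjective a
      rw [hw, h.mulVec] at ha
      refine Finset.mem_image_of_mem _ ?_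
      by_contra hb
      simp [hb] at ha
    have hsub : mset n ⊆ (mset m).image π := by
      intro a ha
      simp only [mset, List.mem_toFinset, List.mem_cons, List.not_mem_nil, or_false] at ha
      simp only [ne_eq, mul_eq_zero, not_or] at hn0
      rcases ha with rfl | rfl | rfl
      exacts [hmem _ hn0.1.1, hmem _ hn0.1.2, hmem _ hn0.2]
    show (mset m).image π = mset n
    refine (Finset.eq_of_subset_of_card_le hsub ?_).symm
    rw [Finset.card_image_of_injective _ π.injective]
    have hc : ∀ m ∈ monos, (mset m).card = 3 := fun m hm => by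
      rw [mset, List.toFinset_card_of_nodup ((star_facts.2.1 _ (List.mem_map.2 ⟨m, hm, rfl⟩)).1)]
      rfl
    rw [hc m hm, hc n hn]
  · subst hπ
    obtain ⟨h1, h2⟩ := hval m hm
    rw [cval_support hm fun a ha => ?_] at h1
    · have e : ∀ a, ((ξ F x : Matrix I27 I27 F) *ᵥ fun a => if a ∈ mset m then (1 : F) else 0) a =
          c a * if a ∈ mset m then 1 else 0 := fun a => h.mulVec _ a
      rw [e, e, e] at h1
      simpa [mset, h2] using h1
    · have e := h.mulVec (fun a => if a ∈ mset m then (1 : F) else 0) a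
      simp only [Equiv.Perm.one_apply] at e
      rw [e, if_neg ha, mul_zero]

/-! ### Monomial shape over the monomial subgroup -/

/-- Exponents of a regular torus element. -/
def regN : Fin 6 → ℤ := ![5, 11, 13, 0, 7, 0]

theorem reg_ok : (∀ a b : I27, a ≠ b → (∑ i, wt i a * regN i) ≠ ∑ i, wt i b * regN i) ∧
    ∀ a b : I27, |(∑ i, wt i a * regN i) - ∑ i, wt i b * regN i| < 64 := by
  refine ⟨by decide +kernel, by decide +kernel⟩

theorem cart_cols : (∀ r s : Fin 72, (∀ i : Fin 6, chevE6.cartan i.val r.val = chevE6.cartan i.val s.val) → r = s) ∧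
    ∀ (r s : Fin 72) (i : Fin 6), |chevE6.cartan i.val r.val - chevE6.cartan i.val s.val| < 64 := by
  refine ⟨by decide +kernel, by decide +kernel⟩

theorem exists_gen (hF : 65 ≤ Nat.card F) : ∃ ζ : Fˣ, ∀ m : ℤ, |m| < 64 → ζ ^ m = 1 → m = 0 := by
  obtain ⟨ζ, hζ⟩ := IsCyclic.exists_generator (α := Fˣ)
  refine ⟨ζ, fun m hm h => ?_⟩
  have ho : 64 ≤ orderOf ζ := by
    rw [orderOf_eq_card_of_forall_mem_zpowers hζ, Nat.card_units]
    omega
  have hdvd := orderOf_dvd_iff_zpow_eq_one.2 h
  by_contra hne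
  have := Int.le_of_dvd (abs_pos.2 hne) ((dvd_abs _ _).2 hdvd)
  omega

theorem over_monomial (hF : 65 ≤ Nat.card F) {x : Cov} (hx : θm F x ∈ chevE6.monomialSubgroup F) :
    ∃ π c, MonoShape (ξ F x : Matrix I27 I27 F) π c ∧ Pres π ∧
      (π = 1 → θm F x ∈ chevE6.diagonalSubgroup F ∧ ∀ m ∈ monos, c m.2.1 * c m.2.2.1 * c m.2.2.2 = 1) := by
  classical
  obtain ⟨ζ, hζ⟩ := exists_gen hF
  have hconj : ∀ c, ∃ d, tc F d = x * tc F c * x⁻¹ := fun c => over_diagonal (by
    rw [map_mul, map_mul, map_inv]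
    refine (Subgroup.mem_normalizer_iff.1 (sysE6.monomial_le_normalizer F hx) _).1 ?_
    rw [theta_tc, sysE6.diagonal_eq]
    exact ⟨_, rfl⟩)
  set cr : Fin 6 → Fˣ := fun i => ζ ^ regN i
  obtain ⟨d, hd⟩ := hconj cr
  set M : Matrix I27 I27 F := (ξ F x : Matrix I27 I27 F) with hM
  set u : I27 → F := fun a => (tw F cr a : F)
  have hu : Function.Injective u := fun a b h => by
    have e : ∀ a, tw F cr a = ζ ^ ∑ i, wt i a * regN i := fun a => by
      show ∏ i : Fin 6, cr i ^ wt i a = _
      rw [prod_zpow_sum]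
      exact Finset.prod_congr rfl fun i _ => by rw [← zpow_mul, mul_comm]
    have h' : tw F cr a = tw F cr b := Units.ext h
    rw [e, e] at h'
    by_contra hne
    refine reg_ok.1 a b hne (sub_eq_zero.1 (hζ _ (reg_ok.2 a b) ?_))
    rw [zpow_sub, h', mul_inv_cancel]
  have hcomm : ∀ a b, M a b * u b = (tw F d a : F) * M a b := by
    have e : ξ F x * diagU F (tw F cr) = diagU F (tw F d) * ξ F x := by
      rw [← xi_tc, ← xi_tc, hd, map_mul, map_mul, map_inv, inv_mul_cancel_right]
    intro a b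
    have := congrArg (fun A : GL I27 F => (A : Matrix I27 I27 F) a b) e
    simpa [diagU_val, Matrix.mul_diagonal, Matrix.diagonal_mul] using this
  have hrow : ∀ a b b', M a b ≠ 0 → M a b' ≠ 0 → b = b' := fun a b b' h h' => hu (by
    have e1 := hcomm a b
    have e2 := hcomm a b'
    rw [mul_comm] at e1 e2
    rw [mul_right_cancel₀ h e1, mul_right_cancel₀ h' e2])
  have hcol : ∀ b, ∃ a, M a b ≠ 0 := fun b => by
    by_contra hz
    push Not at hz
    have e : (((ξ F x)⁻¹ : GL I27 F) : Matrix I27 I27 F) * M = 1 := Units.inv_mul _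
    have := congrFun (congrFun e b) b
    simp [Matrix.mul_apply, hz] at this
  choose p hp using hcol
  have hpi : Function.Injective p := fun b b' e => hrow _ b b' (hp b) (by rw [e]; exact hp b')
  let π : Equiv.Perm I27 := Equiv.ofBijective p (Finite.injective_iff_bijective.1 hpi)
  have hshape : MonoShape M π fun b => M (p b) b := by
    refine ⟨fun a b => ?_, hp⟩
    by_cases hab : a = π b
    · rw [if_pos hab, hab]; rfl
    · rw [if_neg hab]
      by_contra hne
      obtain ⟨b', rfl⟩ := π.surjective a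
      exact hab (congrArg π (hrow _ b b' hne (hp b')).symm)
  obtain ⟨hpres, hdiag⟩ := mono_form hshape
  refine ⟨π, _, hshape, hpres, fun hπ => ⟨?_, hdiag hπ⟩⟩
  -- a diagonal image centralises the torus
  have hxd : ξ F x = diagU F fun b => Units.mk0 (M (p b) b) (hp b) := by
    refine Units.ext (Matrix.ext fun a b => ?_)
    show M a b = _
    rw [hshape.1 a b, hπ, Equiv.Perm.one_apply, diagU_val, Matrix.diagonal_apply]
    by_cases hab : a = b
    · subst hab; simp
    · simp [hab]
  set n : ↥(chevE6.monomialSubgroup F) := ⟨θm F x, hx⟩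
  have hfix : ∀ c : Fin 6 → Fˣ, θm F x * torF6 F c * (θm F x)⁻¹ = torF6 F c := fun c => by
    obtain ⟨d, hd⟩ := hconj c
    have : d = c := xi_tc_injective (by
      show ξ F (tc F d) = ξ F (tc F c)
      rw [hd, map_mul, map_mul, map_inv, xi_tc, hxd, ← map_mul, ← map_inv, ← map_mul]
      congr 1
      rw [mul_right_comm, mul_inv_cancel, one_mul])
    rw [← theta_tc, ← map_inv, ← map_mul, ← map_mul, ← hd, this]
  have hperm : sysE6.perm F n = 1 := Equiv.ext fun s => by
    rw [Equiv.Perm.one_apply]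
    refine cart_cols.1 _ s fun i => ?_
    have h1 := hfix (Pi.mulSingle i ζ)
    rw [torF6_apply] at h1
    have h2 := CfsgLib.F4AltSection.torusVal_perm sysE6 n h1 s
    have e : ∀ r : ℕ, torusVal chevE6 (extendOne 6 Fˣ (Pi.mulSingle i ζ)) r =
        ζ ^ chevE6.cartan i.val r := fun r => by
      rw [extendOne_mulSingle, torusVal, Finset.prod_eq_single i.val]
      · rw [Pi.mulSingle_eq_same]
      · intro j _ hj
        rw [Pi.mulSingle_eq_of_ne hj, one_zpow]
      · intro h; exact absurd (Finset.mem_range.2 i.isLt) h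
    rw [e, e] at h2
    refine sub_eq_zero.1 (hζ _ (cart_cols.2 _ _ i) ?_)
    rw [zpow_sub, h2, mul_inv_cancel]
  rw [← MonoidHom.mem_ker, sysE6.ker_perm F, hSub, Subgroup.mem_subgroupOf] at hperm
  exact hperm

end CfsgLib.E6AltSection
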